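import Cfsg.Agent.H544.LQ.Defs
import Cfsg.Agent.H256.RowAlt

/-!
# Latin quandles (S4114): the alternating groups (helper39, TEAM LQ)
-/

set_option autoImplicit false

namespace Cfsg.Agent.H39.LQ

open Subgroup Cfsg.Agent.H544.LQ Cfsg.Agent.H459.Rad

section general

variable {G : Type*} [Group G] [Finite G]

/-- every element of an invariant subgroup is `c (m⁻¹ x(m))` -/
theorem lat_surj {x : MulAut G} (h : Lat x) {M : Subgroup G} (hM : ∀ m ∈ M, x m ∈ M) {y : G} (hy : y ∈ M) :
    ∃ c ∈ M, ∃ m ∈ M, x c = c ∧ y = c * (m⁻¹ * x m) := by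
  classical
  have := Fintype.ofFinite M
  let f : M → M := fun m => ⟨(m : G)⁻¹ * x m, M.mul_mem (M.inv_mem m.2) (hM m m.2)⟩
  let C : Finset M := Finset.univ.filter fun c => x (c : G) = c
  have h1 : (Finset.univ : Finset M).card ≤ C.card * (Finset.univ.image f).card := by
    refine Finset.card_le_mul_card_image _ _ ?_
    intro a ha
    rw [Finset.mem_image] at ha
    obtain ⟨m0, -, rfl⟩ := ha
    refine Finset.card_le_card_of_injOn (fun m => m * m0⁻¹) ?_ ?_
    · intro m hm
      rw [Finset.coe_filter, Set.mem_ofPred_eq] at hm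
      have h2 : (m : G)⁻¹ * x m = (m0 : G)⁻¹ * x m0 := congrArg Subtype.val hm.2
      rw [Finset.coe_filter, Set.mem_ofPred_eq]
      refine ⟨Finset.mem_univ _, ?_⟩
      show x ((m : G) * (m0 : G)⁻¹) = (m : G) * (m0 : G)⁻¹
      have h3 : x (m : G) = (m : G) * ((m0 : G)⁻¹ * x m0) := by rw [← h2]; group
      rw [map_mul, map_inv, h3]
      group
    · intro a _ b _ hab
      exact mul_right_cancel hab
  have h2 : C.card * (Finset.univ.image f).card = (C ×ˢ (Finset.univ.image f)).card := (Finset.card_product _ _).symm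
  let g : M × M → M := fun a => a.1 * a.2
  have hinj : Set.InjOn g (C ×ˢ (Finset.univ.image f) : Finset (M × M)) := by
    rintro ⟨c, d⟩ hcd ⟨c', d'⟩ hcd' hg
    rw [Finset.coe_product, Set.mem_prod, Finset.mem_coe, Finset.mem_coe, Finset.mem_filter, Finset.mem_image] at hcd hcd'
    obtain ⟨⟨-, hc⟩, m, -, hm⟩ := hcd
    obtain ⟨⟨-, hc'⟩, m', -, hm'⟩ := hcd'
    simp only at hc hm hc' hm'
    have hg' : c * d = c' * d' := hg
    have h3 : (c'⁻¹ * c : M) = 1 := by
      apply Subtype.ext
      refine h ((c'⁻¹ * c : M) : G) m m' ?_ ?_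
      · show x ((c' : G)⁻¹ * c) = (c' : G)⁻¹ * c
        rw [map_mul, map_inv, hc, hc']
      · have h4 : (m : G)⁻¹ * x m = (d : G) := congrArg Subtype.val hm
        have h5 : (m' : G)⁻¹ * x m' = (d' : G) := congrArg Subtype.val hm'
        rw [h4, h5]
        have h6 : (c : G) * d = c' * d' := congrArg Subtype.val hg'
        show (c' : G)⁻¹ * c * d = d'
        rw [mul_assoc, h6, inv_mul_cancel_left]
    have h4 : c = c' := by rw [inv_mul_eq_one] at h3; exact h3.symm
    subst h4
    rw [mul_right_inj] at hg'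
    rw [hg']
  have himg : (C ×ˢ (Finset.univ.image f)).image g = Finset.univ := by
    apply Finset.eq_univ_of_card
    rw [Finset.card_image_of_injOn hinj]
    refine le_antisymm ?_ (by rw [← h2]; exact h1)
    rw [← Finset.card_image_of_injOn hinj]
    exact Finset.card_le_univ _
  have h3 : (⟨y, hy⟩ : M) ∈ (C ×ˢ (Finset.univ.image f)).image g := by rw [himg]; exact Finset.mem_univ _
  rw [Finset.mem_image] at h3
  obtain ⟨⟨c, d⟩, hcd, hgy⟩ := h3
  rw [Finset.mem_product, Finset.mem_filter, Finset.mem_image] at hcd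
  obtain ⟨⟨-, hc⟩, m, -, hm⟩ := hcd
  refine ⟨c, c.2, m, m.2, hc, ?_⟩
  have h4 : (m : G)⁻¹ * x m = (d : G) := congrArg Subtype.val hm
  rw [h4]
  exact (congrArg Subtype.val hgy).symm

omit [Finite G] in
/-- `x` fixes `b` if a power of `x` is `conj b` -/
theorem fix_of_inner {x : MulAut G} (hcen : center G = ⊥) {k : ℕ} {b : G} (hb : x ^ k = MulAut.conj b) : x b = b := by
  have h1 : MulAut.conj (x b) = MulAut.conj b := by
    have h2 : x * MulAut.conj b = MulAut.conj b * x := by rw [← hb]; exact (Commute.refl x).pow_right k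
    have h3 : MulAut.conj (x b) = x * MulAut.conj b * x⁻¹ := by
      ext z
      simp
    rw [h3, h2, mul_inv_cancel_right]
  have h2 : MulAut.conj (b⁻¹ * x b) = (1 : MulAut G) := by rw [map_mul, h1, map_inv, inv_mul_cancel]
  have h3 : b⁻¹ * x b ∈ center G := by
    rw [mem_center_iff]
    intro z
    have h4 : (b⁻¹ * x b) * z * (b⁻¹ * x b)⁻¹ = z := by
      have := DFunLike.congr_fun h2 z
      rwa [MulAut.conj_apply, MulAut.one_apply] at this
    have h5 : (b⁻¹ * x b) * z = z * (b⁻¹ * x b) := mul_inv_eq_iff_eq_mul.1 h4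
    exact h5.symm
  rw [hcen, mem_bot] at h3
  exact (inv_mul_eq_one.1 h3).symm

/-- a power of `x` which is inner, `x ^ k = conj b`, is not conjugate to another fixed point -/
theorem inner_pow {x : MulAut G} (h : Lat x) (hcen : center G = ⊥) {k : ℕ} {b g : G} (hb : x ^ k = MulAut.conj b)
    (hg : x (g⁻¹ * b * g) = g⁻¹ * b * g) : g⁻¹ * b * g = b := by
  have hxb := fix_of_inner hcen hb
  have hM : ∀ m ∈ centralizer ({b} : Set G), x m ∈ centralizer ({b} : Set G) := by
    intro m hm
    rw [mem_centralizer_singleton_iff] at hm ⊢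
    have := congrArg x hm
    rwa [map_mul, map_mul, hxb] at this
  have hy : g * x g⁻¹ ∈ centralizer ({b} : Set G) := by
    rw [mem_centralizer_singleton_iff]
    have h1 : x g⁻¹ * b * x g = g⁻¹ * b * g := by
      rw [← hg, map_mul, map_mul, hxb]
    have h2 : x g⁻¹ * b = g⁻¹ * b * g * x g⁻¹ := by
      rw [← h1, map_inv]; group
    rw [mul_assoc, h2]
    group
  obtain ⟨c, -, m, hm, hc, hcm⟩ := lat_surj h hM hy
  have hc1 : c = 1 := h c m g⁻¹ hc (by rw [← hcm, _root_.inv_inv])
  rw [hc1, one_mul] at hcm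
  have h1 : x (m * g) = m * g := by
    have h2 : x m = m * (g * x g⁻¹) := by rw [hcm]; group
    rw [map_mul, h2, map_inv]
    group
  have h2 : b * (m * g) * b⁻¹ = m * g := by
    have h3 : (x ^ k) (m * g) = m * g := by
      clear hb
      induction k with
      | zero => rfl
      | succ k ih => rw [pow_succ, MulAut.mul_apply, h1, ih]
    rw [hb] at h3
    simpa using h3
  rw [mem_centralizer_singleton_iff] at hm
  have h3 : b * (m * g) = m * g * b := mul_inv_eq_iff_eq_mul.1 h2
  have h4 : m * (b * g) = m * (g * b) := by rw [← mul_assoc, hm, mul_assoc, h3, mul_assoc]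
  rw [mul_assoc, mul_left_cancel h4, inv_mul_cancel_left]

theorem lat_tr {K L : Type*} [Group K] [Group L] (e : K ≃* L) {x : MulAut K} (h : Lat x) : Lat (tr e x) := by
  intro c g k hc hcg
  rw [tr_apply] at hc
  have h1 : e.symm c = 1 := by
    refine h (e.symm c) (e.symm g) (e.symm k) ?_ ?_
    · apply e.injective
      rw [hc, MulEquiv.apply_symm_apply]
    · apply e.injective
      rw [tr_apply, tr_apply] at hcg
      simpa using hcg
  rw [← MulEquiv.apply_symm_apply e c, h1, map_one]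

theorem hyp_tr {K L : Type*} [Group K] [Group L] [Finite K] [Finite L] (e : K ≃* L) {x : MulAut K} (h : Hyp x) :
    Hyp (tr e x) where
  ne := fun h1 => h.ne ((trE e).injective (by rw [map_one]; exact h1))
  lat := lat_tr e h.lat
  rc := h.rc.tr e

/-- transport of rows -/
theorem row_congr {K L : Type*} [Group K] [Group L] [Finite K] [Finite L] (e : K ≃* L) (h : Row K) : Row L :=
  fun x hx => h (tr e.symm x) (hyp_tr e.symm hx)

end general

open Equiv Equiv.Perm Cfsg.Agent.H256.RowAlt

/-- an element of odd prime order of `A_n`, `n ≥ 5`, is conjugate to another of its powers -/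
theorem exists_conj_ne {n p : ℕ} (hn : 5 ≤ n) (hp : p.Prime) (hp2 : p ≠ 2) {y : alternatingGroup (Fin n)}
    (hy : orderOf y = p) : ∃ g : alternatingGroup (Fin n), ∃ k : ℕ, g⁻¹ * y * g = y ^ k ∧ g⁻¹ * y * g ≠ y := by
  have hy' : orderOf (y : Perm (Fin n)) = p := by
    rw [← hy]
    exact orderOf_injective (alternatingGroup (Fin n)).subtype (subtype_injective _) y
  by_cases h3 : p = 3
  · subst h3
    obtain ⟨σ, hσ⟩ := exists_conj_pow (k := 2) hp (by norm_num) hy'
    obtain ⟨τ, hτ, hτy⟩ : ∃ τ ∈ alternatingGroup (Fin n),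
        τ * (y : Perm (Fin n)) * τ⁻¹ = (y : Perm (Fin n)) ^ 2 := by
      by_cases hs : σ ∈ alternatingGroup (Fin n)
      · exact ⟨σ, hs, hσ⟩
      have hc : ¬ Subgroup.centralizer ({(y : Perm (Fin n))} : Set (Perm (Fin n))) ≤
          alternatingGroup (Fin n) := by
        rw [Equiv.Perm.centralizer_le_alternating_iff]
        rintro ⟨-, h1, h2⟩
        obtain ⟨a, ha⟩ := Equiv.Perm.cycleType_prime_order (σ := (y : Perm (Fin n)))
          (by rwa [hy'])
        have h4 := h2 3
        rw [ha, hy', Multiset.count_replicate_self] at h4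
        rw [ha, hy', Multiset.sum_replicate, smul_eq_mul, Fintype.card_fin] at h1
        omega
      rw [SetLike.not_le_iff_exists] at hc
      obtain ⟨ρ, hρ, hρn⟩ := hc
      rw [mem_centralizer_singleton_iff] at hρ
      refine ⟨σ * ρ, ?_, ?_⟩
      · rw [Equiv.Perm.mem_alternatingGroup] at hs hρn ⊢
        rw [map_mul, (Int.units_eq_one_or _).resolve_left hs,
          (Int.units_eq_one_or _).resolve_left hρn]
        rfl
      · rw [← hσ]
        calc σ * ρ * (y : Perm (Fin n)) * (σ * ρ)⁻¹ = σ * (ρ * y) * ρ⁻¹ * σ⁻¹ := by group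
          _ = σ * (y * ρ) * ρ⁻¹ * σ⁻¹ := by rw [hρ]
          _ = _ := by group
    have h1 : (⟨τ, hτ⟩ : alternatingGroup (Fin n)) * y * (⟨τ, hτ⟩ : alternatingGroup (Fin n))⁻¹ =
        y ^ 2 := Subtype.ext (by simpa using hτy)
    refine ⟨(⟨τ, hτ⟩ : alternatingGroup (Fin n))⁻¹, 2, by rw [_root_.inv_inv]; exact h1, ?_⟩
    rw [_root_.inv_inv, h1]
    intro h2
    have h3 : y = 1 := by
      rw [pow_two] at h2
      exact mul_eq_left.1 h2
    rw [h3, orderOf_one] at hy
    exact absurd hy (by norm_num)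
  · obtain ⟨σ, hσ⟩ := exists_conj_pow (k := 2) hp
      ((Nat.coprime_primes Nat.prime_two hp).2 hp2.symm) hy'
    have h1 : (⟨σ * σ, sq_mem σ⟩ : alternatingGroup (Fin n)) * y *
        (⟨σ * σ, sq_mem σ⟩ : alternatingGroup (Fin n))⁻¹ = y ^ 4 := by
      apply Subtype.ext
      change σ * σ * (y : Perm (Fin n)) * (σ * σ)⁻¹ = ((y ^ 4 : alternatingGroup (Fin n)) : Perm (Fin n))
      rw [SubmonoidClass.coe_pow]
      calc σ * σ * (y : Perm (Fin n)) * (σ * σ)⁻¹ = σ * (σ * y * σ⁻¹) * σ⁻¹ := by group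
        _ = (σ * y * σ⁻¹) ^ 2 := by rw [hσ, ← hσ, conj_pow, hσ]
        _ = (y : Perm (Fin n)) ^ 4 := by rw [hσ, ← pow_mul]
    refine ⟨(⟨σ * σ, sq_mem σ⟩ : alternatingGroup (Fin n))⁻¹, 4, by rw [_root_.inv_inv]; exact h1, ?_⟩
    rw [_root_.inv_inv, h1]
    intro h2
    have h4 : y ^ 3 = 1 := by
      have h5 : y ^ 3 * y = 1 * y := by rw [← pow_succ, h2, one_mul]
      exact mul_right_cancel h5
    have h5 : p ∣ 3 := by rw [← hy]; exact orderOf_dvd_of_pow_eq_one h4
    exact h3 ((Nat.prime_dvd_prime_iff_eq hp Nat.prime_three).1 h5)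

theorem center_alt {n : ℕ} (hn : 5 ≤ n) : center (alternatingGroup (Fin n)) = ⊥ :=
  alternatingGroup.center_eq_bot (by rw [Nat.card_fin]; omega)

/-- **the row `A_n`**, automorphisms whose order is not a power of two -/
theorem pow_two_of_lat {n : ℕ} (hn : 5 ≤ n) {x : MulAut (alternatingGroup (Fin n))} (h : Lat x) {r : ℕ}
    (hr : r.Prime) (hr2 : r ≠ 2) : ¬ r ∣ orderOf x := by
  intro hd
  have : Fact r.Prime := ⟨hr⟩
  have hfin : Finite (MulAut (alternatingGroup (Fin n))) :=
    Finite.of_injective (fun f : MulAut (alternatingGroup (Fin n)) => (f : _ → _)) DFunLike.coe_injective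
  have h0 : orderOf x ≠ 0 := (orderOf_pos x).ne'
  have h1 : orderOf (x ^ (orderOf x / r)) = r := orderOf_pow_orderOf_div h0 hd
  obtain ⟨b, hb⟩ := inner_of_four hr hr2 (four_inner hn) _ h1
  have hcen := center_alt hn
  have hbo : orderOf b = r := by
    rw [← h1, hb]
    refine (orderOf_injective (MulAut.conj (G := alternatingGroup (Fin n))) ?_ b).symm
    rw [injective_iff_map_eq_one]
    intro a ha
    have : a ∈ center (alternatingGroup (Fin n)) := by
      rw [mem_center_iff]
      intro z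
      have h4 : a * z * a⁻¹ = z := by
        have := DFunLike.congr_fun ha z
        rwa [MulAut.conj_apply, MulAut.one_apply] at this
      exact (mul_inv_eq_iff_eq_mul.1 h4).symm
    rw [hcen, mem_bot] at this
    exact this
  obtain ⟨g, k, hg, hne⟩ := exists_conj_ne hn hr hr2 hbo
  apply hne
  refine inner_pow h hcen hb ?_
  rw [hg, map_pow]
  rw [fix_of_inner hcen hb]

/-- **The row `A_n`, `n ≥ 5`.** -/
theorem row_alt {n : ℕ} (hn : 5 ≤ n)
    (hP : ∀ x : MulAut (alternatingGroup (Fin n)), Hyp x → ∀ m : ℕ, orderOf x ≠ 2 ^ m) :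
    Row (alternatingGroup (Fin n)) := by
  intro x hx
  have hfin : Finite (MulAut (alternatingGroup (Fin n))) :=
    Finite.of_injective (fun f : MulAut (alternatingGroup (Fin n)) => (f : _ → _)) DFunLike.coe_injective
  refine hP x hx _ (Nat.eq_prime_pow_of_unique_prime_dvd (orderOf_pos x).ne' fun {r} hr hd => ?_)
  by_contra h
  exact pow_two_of_lat hn hx.lat hr h hd

/-- **The row of the alternating groups.** -/
theorem row_isAlternating {K : Type*} [Group K] (hK : Cfsg.IsAlternating K)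
    (hP : ∀ x : MulAut K, Hyp x → ∀ m : ℕ, orderOf x ≠ 2 ^ m) : Row K := by
  obtain ⟨n, hn, ⟨e⟩⟩ := hK
  have : Finite K := Finite.of_equiv _ e.symm.toEquiv
  refine row_congr e.symm (row_alt hn fun x hx m hm => hP (tr e.symm x) (hyp_tr e.symm hx) m ?_)
  rw [orderOf_tr, hm]

end Cfsg.Agent.H39.LQ
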